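import Mathlib
import Cfsg.Agent.Lib.Helper50.FOT.Defs

/-!
# FOT [BIJ]: an order-preserving bijection from equality of the order types
-/

set_option autoImplicit false

namespace Cfsg.Agent.Lib.Helper45.FOT

open Cfsg.Agent.Lib.Helper50.FOT

universe u v

/-- **[BIJ]** an order-preserving bijection from equality of the order types. -/
theorem pkgBij : PkgBij.{u, v} := by
  intro F G _ _ _ _ hT
  have h : ∀ m : ℕ, Nonempty ({g : F // orderOf g = m} ≃ {h : G // orderOf h = m}) := fun m =>
    Finite.card_eq.mp (hT m)
  refine ⟨(Equiv.sigmaFiberEquiv (fun g : F => orderOf g)).symm.trans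
    ((Equiv.sigmaCongrRight (fun m => Classical.choice (h m))).trans
      (Equiv.sigmaFiberEquiv (fun h : G => orderOf h))), ?_⟩
  intro x
  exact (Classical.choice (h (orderOf x)) ⟨x, rfl⟩).2

end Cfsg.Agent.Lib.Helper45.FOT
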